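import Cfsg.Agent.Lib.Steinberg.Gen.TData.D4b
import Cfsg.Agent.Lib.Steinberg.Gen.TSwap
import Cfsg.Agent.Lib.Chevalley.All

/-! Tables for the field with three elements for the type D4 -/

set_option autoImplicit false

namespace Cfsg.Agent.Lib.Steinberg.Gen.TData.D4

open Cfsg.Lie Cfsg.Agent.Lib.Chevalley

/-- The swaps of the orthogonal roots. -/
def swT : List (ℕ × ℕ × List ℕ) :=
  [(12, 13, [1, 3, 2, 1]), (12, 18, [1, 3, 0, 1]), (12, 23, [1, 2, 0, 1]), (13, 18, [1, 2, 0, 1]), (13, 23, [1, 3, 0, 1]), (14, 17, [3, 2]), (14, 20, [3, 0]), (14, 21, [2, 0]), (15, 16, [3, 2]), (15, 19, [3, 0]), (15, 22, [2, 0]), (16, 19, [2, 0]), (16, 22, [3, 0]), (17, 20, [2, 0]), (17, 21, [3, 0]), (18, 23, [1, 3, 2, 1]), (19, 22, [3, 2]), (20, 21, [3, 2])]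

set_option maxHeartbeats 0

theorem c7 : swChk chevD4 (SysOf.etaOf Tbl.D4.wT) 24 swT = true := by decide +kernel
theorem c8 : sepChk chevD4 24 [1, -1] (swT.map fun q => (q.1, q.2.1)) vs1 = true := by decide +kernel

end Cfsg.Agent.Lib.Steinberg.Gen.TData.D4
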