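import Cfsg.Agent.Lib.Steinberg.Gen.TData.D4

/-! More tables of the lifting by the torus for the type D4 -/

set_option autoImplicit false

namespace Cfsg.Agent.Lib.Steinberg.Gen.TData.D4

open Cfsg.Lie

/-- The pairs for the commuting of the lifts of a root. -/
def cT : List (ℕ × ℕ × ℤ) :=
  [(1, 9, 1), (0, 14, 1), (0, 15, -1), (0, 16, -1), (0, 17, 1), (1, 17, 1), (0, 19, -1), (0, 20, 1), (0, 21, 1), (0, 22, -1), (1, 20, -1), (1, 21, -1), (2, 22, -1), (3, 22, -1), (1, 23, -1), (2, 23, 1), (3, 23, 1), (4, 23, -1), (6, 22, 1), (6, 23, 1), (7, 23, -1), (8, 23, -1), (9, 23, 1), (14, 22, 1)]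

/-- The exceptional pairs. -/
def ex : List (ℕ × ℕ) :=
  [(12, 13), (12, 18), (12, 23), (13, 18), (13, 23), (14, 17), (14, 20), (14, 21), (15, 16), (15, 19), (15, 22), (16, 19), (16, 22), (17, 20), (17, 21), (18, 23), (19, 22), (20, 21)]

/-- The separating vectors with value one. -/
def vs1 : List (List ℤ) :=
  [[0, -1, 0, 0], [1, 0, 0, 0], [0, 1, 1, 0], [0, 0, 0, 1], [0, -1, 0, -1]]

set_option maxHeartbeats 0

theorem c4 : cTChk chevD4 24 cT = true := by decide +kernel
theorem c6 : sepChk chevD4 24 [1, -1] ex vs1 = true := by decide +kernel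

end Cfsg.Agent.Lib.Steinberg.Gen.TData.D4
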