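import Cfsg.Agent.Lib.Steinberg.Gen.TData.F4

/-! More tables of the lifting by the torus for the type F4 -/

set_option autoImplicit false

namespace Cfsg.Agent.Lib.Steinberg.Gen.TData.F4

open Cfsg.Lie

/-- The pairs for the commuting of the lifts of a root. -/
def cT : List (ℕ × ℕ × ℤ) :=
  [(1, 23, 1), (0, 24, 1), (0, 26, 1), (7, 14, 1), (0, 31, -1), (0, 32, 1), (1, 32, 1), (3, 33, 1), (3, 34, 1), (3, 35, -1), (3, 36, 1), (3, 37, -1), (3, 38, 1), (3, 39, -1), (3, 40, -1), (0, 42, -1), (0, 43, 1), (1, 43, 1), (7, 37, -1), (7, 38, 1), (7, 39, -1), (0, 45, -1), (1, 45, -1), (0, 46, -1), (1, 47, -1), (2, 46, -1), (2, 47, -1), (8, 40, -1), (9, 40, 1), (10, 40, -1), (4, 46, 1), (4, 47, 1), (5, 47, -1), (7, 44, -1), (8, 44, -1), (9, 44, 1), (10, 44, -1), (11, 44, 1), (12, 44, -1), (13, 44, 1), (14, 44, 1), (15, 46, 1), (15, 47, 1), (16, 47, -1), (33, 40, 1), (21, 47, 1), (23, 47, 1), (24, 46, 1)]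

/-- The exceptional pairs. -/
def exT : List (ℕ × ℕ × ℕ × ℕ × ℤ) :=
  [(24, 32, 10, 38, -2), (24, 43, 10, 38, -2), (24, 45, 12, 36, -2), (25, 30, 9, 39, -2), (25, 41, 9, 39, -2), (25, 47, 13, 35, -2), (26, 31, 10, 39, 2), (26, 42, 10, 39, 2), (26, 46, 13, 36, -2), (30, 41, 11, 40, -2), (30, 47, 14, 37, -2), (31, 42, 12, 40, 2), (31, 46, 14, 38, -2), (32, 43, 13, 40, -2), (32, 45, 14, 39, -2), (41, 47, 33, 37, 2), (42, 46, 33, 38, 2), (43, 45, 33, 39, 2)]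

/-- The separating vectors with value one. -/
def vs1 : List (List ℤ) :=
  [[0, 0, 0, 1], [0, 1, 2, 1], [0, 0, 1, 0], [-1, -1, -1, 0], [0, 1, 1, 0], [1, 0, 0, 1]]

set_option maxHeartbeats 0

theorem c4 : cTChk chevF4 48 cT = true := by decide +kernel
theorem c5 : exTChk chevF4 48 exT = true := by decide +kernel
theorem c6 : sepChk chevF4 48 [1, -1] (exT.map fun q => (q.1, q.2.1)) vs1 = true := by decide +kernel

end Cfsg.Agent.Lib.Steinberg.Gen.TData.F4
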